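import Cfsg.Prelude.Def_GeometricClasses
import Cfsg.Agent.ClassicalGeometry.SymmNormalForm
import Cfsg.Agent.H883.Tensor
import Cfsg.Agent.H883.Sub
import Cfsg.Agent.H925.OrthNot
set_option linter.all false

-- part: H883/Frame3
section
/-!
Nondegenerate symmetric bilinear forms on `F^3`, `|F| = 3`: there is an orthogonal frame of three vectors
of equal norm, and every similarity permutes the frame up to signs (`O_3(3) = 2 × Sym(4)` is monomial).
-/

set_option autoImplicit false

namespace Cfsg.Agent.H883.Frame3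

open scoped Matrix

section Field3

variable {F : Type*} [Field F] [Fintype F]

theorem three_eq_zero (hq : Fintype.card F = 3) : (3 : F) = 0 := by
  have := FiniteField.cast_card_eq_zero F
  rw [hq] at this
  exact_mod_cast this

theorem elems (hq : Fintype.card F = 3) (x : F) : x = 0 ∨ x = 1 ∨ x = -1 := by
  have h := FiniteField.pow_card x
  rw [hq] at h
  have h2 : x * ((x - 1) * (x + 1)) = 0 := by linear_combination h
  rcases mul_eq_zero.1 h2 with h3 | h3
  · exact Or.inl h3
  · rcases mul_eq_zero.1 h3 with h4 | h4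
    · exact Or.inr (Or.inl (sub_eq_zero.1 h4))
    · exact Or.inr (Or.inr (eq_neg_of_add_eq_zero_left h4))

theorem two_ne_zero3 (hq : Fintype.card F = 3) : (2 : F) ≠ 0 := by
  intro h
  have h3 := three_eq_zero hq
  have : (1 : F) = 0 := by linear_combination h3 - h
  exact one_ne_zero this

theorem neg_one_ne_one3 (hq : Fintype.card F = 3) : (-1 : F) ≠ 1 := by
  intro h
  apply two_ne_zero3 hq
  linear_combination -h

theorem sq_cases (hq : Fintype.card F = 3) (x : F) : (x = 0 ∧ x * x = 0) ∨ (x ≠ 0 ∧ x * x = 1) := by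
  rcases elems hq x with h | h | h
  · left; rw [h]; simp
  · right; rw [h]; simp
  · right; rw [h]; simp

theorem not_isSquare_neg_one (hq : Fintype.card F = 3) : ¬ IsSquare (-1 : F) := by
  rintro ⟨s, hs⟩
  rcases sq_cases hq s with ⟨-, h⟩ | ⟨-, h⟩
  · rw [h] at hs
    exact neg_ne_zero.2 one_ne_zero hs
  · rw [h] at hs
    exact neg_one_ne_one3 hq hs

/-- Three squares summing to one: exactly one is nonzero. -/
theorem three_sq (hq : Fintype.card F = 3) {a b c : F} (h : a * a + b * b + c * c = 1) :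
    (a ≠ 0 ∧ b = 0 ∧ c = 0) ∨ (a = 0 ∧ b ≠ 0 ∧ c = 0) ∨ (a = 0 ∧ b = 0 ∧ c ≠ 0) := by
  have h3 := three_eq_zero hq
  have h2 := two_ne_zero3 hq
  rcases sq_cases hq a with ⟨ha, ha'⟩ | ⟨ha, ha'⟩ <;> rcases sq_cases hq b with ⟨hb, hb'⟩ | ⟨hb, hb'⟩ <;>
    rcases sq_cases hq c with ⟨hc, hc'⟩ | ⟨hc, hc'⟩ <;> rw [ha', hb', hc'] at h
  · exfalso; simp at h
  · exact Or.inr (Or.inr ⟨ha, hb, hc⟩)
  · exact Or.inr (Or.inl ⟨ha, hb, hc⟩)
  · exfalso
    have : (1 : F) = 0 := by linear_combination h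
    exact one_ne_zero this
  · exact Or.inl ⟨ha, hb, hc⟩
  · exfalso
    have : (1 : F) = 0 := by linear_combination h
    exact one_ne_zero this
  · exfalso
    have : (1 : F) = 0 := by linear_combination h
    exact one_ne_zero this
  · exfalso
    apply h2
    linear_combination h

end Field3

variable {F : Type*} [Field F]

/-- a symmetric form as a bilinear form -/
noncomputable def toBilin {n : ℕ} {f : (Fin n → F) → (Fin n → F) → F}
    (hf : Cfsg.Geo.IsBilinearForm f) : LinearMap.BilinForm F (Fin n → F) :=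
  LinearMap.mk₂ F f hf.add_left (fun c x v => by rw [hf.smul_left, smul_eq_mul]) hf.add_right
    (fun c v x => by rw [hf.smul_right, smul_eq_mul])

theorem toBilin_apply {n : ℕ} {f : (Fin n → F) → (Fin n → F) → F}
    (hf : Cfsg.Geo.IsBilinearForm f) (x y : Fin n → F) : toBilin hf x y = f x y := rfl

/-- **Orthogonal frame with equal norms on `F_3^3`.** -/
theorem exists_frame [Fintype F] (hq : Fintype.card F = 3) {f : (Fin 3 → F) → (Fin 3 → F) → F}
    (hf : Cfsg.Geo.IsSymmetricForm f) :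
    ∃ (v : Fin 3 → (Fin 3 → F)) (ε : F), ε ≠ 0 ∧ (∀ i, f (v i) (v i) = ε) ∧
      ∀ i j, i ≠ j → f (v i) (v j) = 0 := by
  have hS : (toBilin hf.bilinear).IsSymm := ⟨fun x y => hf.symm x y⟩
  have hB : (toBilin hf.bilinear).Nondegenerate := by
    constructor
    · intro x hx
      by_contra h0
      obtain ⟨-, y, hy⟩ := hf.nondegenerate x h0
      exact hy (hx y)
    · intro x hx
      by_contra h0
      obtain ⟨⟨y, hy⟩, -⟩ := hf.nondegenerate x h0
      exact hy (hx y)
  obtain ⟨b, hb1, hb2, hb3⟩ := Cfsg.Agent.ClassicalGeometry.SymmNormalForm.exists_basis_one_or_nonsquare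
    (two_ne_zero3 hq) (toBilin hf.bilinear) hS hB (n := 2) (by simp) (-1) (not_isSquare_neg_one hq)
  have e : ∀ i j, toBilin hf.bilinear (b i) (b j) = f (b i) (b j) := fun _ _ => rfl
  have h0 : f (b 0) (b 0) = 1 := hb2 0 (by decide)
  have h1 : f (b 1) (b 1) = 1 := hb2 1 (by decide)
  have h01 : f (b 0) (b 1) = 0 := hb1 0 1 (by decide)
  have h10 : f (b 1) (b 0) = 0 := hb1 1 0 (by decide)
  have h02 : f (b 0) (b 2) = 0 := hb1 0 2 (by decide)
  have h20 : f (b 2) (b 0) = 0 := hb1 2 0 (by decide)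
  have h12 : f (b 1) (b 2) = 0 := hb1 1 2 (by decide)
  have h21 : f (b 2) (b 1) = 0 := hb1 2 1 (by decide)
  have h3 := three_eq_zero hq
  rcases hb3 with h2 | h2
  · refine ⟨fun i => b i, 1, one_ne_zero, ?_, fun i j hij => hb1 i j hij⟩
    intro i
    fin_cases i
    · exact h0
    · exact h1
    · exact h2
  · have h2' : f (b 2) (b 2) = -1 := h2
    have hneg : ∀ x y, f x (-y) = - f x y := by
      intro x y
      have := hf.bilinear.smul_right (-1) x y
      simpa using this
    have hneg' : ∀ x y, f (-x) y = - f x y := by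
      intro x y
      rw [hf.symm, hneg, hf.symm]
    refine ⟨![b 0 + b 1, b 0 - b 1, b 2], -1, neg_ne_zero.2 one_ne_zero, ?_, ?_⟩
    · intro i
      fin_cases i
      · show f (b 0 + b 1) (b 0 + b 1) = -1
        rw [hf.bilinear.add_left, hf.bilinear.add_right, hf.bilinear.add_right, h0, h1, h01, h10]
        linear_combination h3
      · show f (b 0 - b 1) (b 0 - b 1) = -1
        rw [sub_eq_add_neg, hf.bilinear.add_left, hf.bilinear.add_right, hf.bilinear.add_right,
          hneg, hneg', hneg', hneg, h0, h1, h01, h10]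
        linear_combination h3
      · exact h2'
    · intro i j hij
      have k01 : f (b 0 + b 1) (b 0 - b 1) = 0 := by
        rw [sub_eq_add_neg, hf.bilinear.add_left, hf.bilinear.add_right, hf.bilinear.add_right,
          hneg, hneg, h0, h1, h01, h10]
        ring
      have k02 : f (b 0 + b 1) (b 2) = 0 := by rw [hf.bilinear.add_left, h02, h12, add_zero]
      have k12 : f (b 0 - b 1) (b 2) = 0 := by
        rw [sub_eq_add_neg, hf.bilinear.add_left, hneg', h02, h12]; ring
      fin_cases i <;> fin_cases j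
      · exact absurd rfl hij
      · exact k01
      · exact k02
      · show f (b 0 - b 1) (b 0 + b 1) = 0
        rw [hf.symm]; exact k01
      · exact absurd rfl hij
      · exact k12
      · show f (b 2) (b 0 + b 1) = 0
        rw [hf.symm]; exact k02
      · show f (b 2) (b 0 - b 1) = 0
        rw [hf.symm]; exact k12
      · exact absurd rfl hij

/-- Expansion in an orthogonal frame of `F^3`. -/
theorem expand {f : (Fin 3 → F) → (Fin 3 → F) → F} (hf : Cfsg.Geo.IsSymmetricForm f)
    {v : Fin 3 → (Fin 3 → F)} {ε : F} (hε : ε ≠ 0) (hv : ∀ i, f (v i) (v i) = ε)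
    (hv' : ∀ i j, i ≠ j → f (v i) (v j) = 0) (x : Fin 3 → F) :
    x = ∑ k, (ε⁻¹ * f (v k) x) • v k := by
  have hsum : ∀ (c : Fin 3 → F) (j : Fin 3), f (v j) (∑ k, c k • v k) = c j * ε := by
    intro c j
    have h1 : toBilin hf.bilinear (v j) (∑ k, c k • v k) = ∑ k, c k * f (v j) (v k) := by
      rw [map_sum]
      refine Finset.sum_congr rfl fun k _ => ?_
      rw [map_smul, smul_eq_mul]
      rfl
    rw [← toBilin_apply hf.bilinear, h1, Finset.sum_eq_single j]
    · rw [hv]
    · intro k _ hk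
      rw [hv' j k hk.symm, mul_zero]
    · simp
  have hli : LinearIndependent F v := by
    rw [Fintype.linearIndependent_iff]
    intro c hc j
    have h1 := hsum c j
    rw [hc] at h1
    have h2 : f (v j) 0 = 0 := by
      have := hf.bilinear.smul_right 0 (v j) 0
      simpa using this
    rw [h2] at h1
    exact (mul_eq_zero.1 h1.symm).resolve_right hε
  let b := basisOfLinearIndependentOfCardEqFinrank hli (by simp)
  have hb : ∀ i, b i = v i := fun i => by
    simp [b, coe_basisOfLinearIndependentOfCardEqFinrank]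
  have hx : x = ∑ k, b.repr x k • v k := by
    conv_lhs => rw [← b.sum_repr x]
    exact Finset.sum_congr rfl fun k _ => by rw [hb]
  have hc : ∀ k, b.repr x k = ε⁻¹ * f (v k) x := by
    intro k
    have h1 := hsum (fun k => b.repr x k) k
    rw [← hx] at h1
    rw [h1]
    field_simp
  conv_lhs => rw [hx]
  exact Finset.sum_congr rfl fun k _ => by rw [hc]

/-- **A similarity of `f` on `F_3^3` permutes the frame up to scalars.** -/
theorem similarity_frame [Fintype F] (hq : Fintype.card F = 3)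
    {f : (Fin 3 → F) → (Fin 3 → F) → F} (hf : Cfsg.Geo.IsSymmetricForm f)
    {v : Fin 3 → (Fin 3 → F)} {ε : F} (hε : ε ≠ 0) (hv : ∀ i, f (v i) (v i) = ε)
    (hv' : ∀ i j, i ≠ j → f (v i) (v j) = 0) {a : (Fin 3 → F) → (Fin 3 → F)} {lam : F}
    (hlam : lam ≠ 0) (ha : ∀ i j, f (a (v i)) (a (v j)) = lam * f (v i) (v j)) :
    ∃ σ : Equiv.Perm (Fin 3), ∀ i, ∃ c : F, c ≠ 0 ∧ a (v i) = c • v (σ i) := by
  set m : Matrix (Fin 3) (Fin 3) F := fun k i => ε⁻¹ * f (v k) (a (v i)) with hm
  have hexp : ∀ i, a (v i) = ∑ k, m k i • v k := fun i => expand hf hε hv hv' (a (v i))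
  have hform : ∀ i j, f (a (v i)) (a (v j)) = ε * ∑ k, m k i * m k j := by
    intro i j
    conv_lhs => rw [hexp i]
    have h1 : ∀ (c : Fin 3 → F) (y : Fin 3 → F), f (∑ k, c k • v k) y = ∑ k, c k * f (v k) y := by
      intro c y
      rw [← toBilin_apply hf.bilinear, map_sum, LinearMap.sum_apply]
      refine Finset.sum_congr rfl fun k _ => ?_
      rw [map_smul, LinearMap.smul_apply, smul_eq_mul]
      rfl
    rw [h1, Finset.mul_sum]
    refine Finset.sum_congr rfl fun k _ => ?_
    have h2 : f (v k) (a (v j)) = ε * m k j := by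
      rw [hm]
      field_simp
    rw [h2]
    ring
  have hmm : m.transpose * m = lam • (1 : Matrix (Fin 3) (Fin 3) F) := by
    ext i j
    rw [Matrix.mul_apply, Matrix.smul_apply, Matrix.one_apply, smul_eq_mul]
    have h1 := hform i j
    rw [ha] at h1
    have h2 : ∑ k, m.transpose i k * m k j = ∑ k, m k i * m k j := rfl
    rw [h2]
    apply mul_left_cancel₀ hε
    rw [← h1]
    by_cases hij : i = j
    · subst hij
      rw [hv]
      simp
      ring
    · rw [hv' i j hij]
      simp [hij]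
  have hlam1 : lam = 1 := by
    rcases elems hq lam with h | h | h
    · exact absurd h hlam
    · exact h
    · exfalso
      have h1 := congrArg Matrix.det hmm
      rw [Matrix.det_mul, Matrix.det_transpose, Matrix.det_smul, Matrix.det_one, h,
        Fintype.card_fin] at h1
      apply not_isSquare_neg_one hq
      refine ⟨m.det, ?_⟩
      rw [h1]
      ring
  have hcol : ∀ i, m 0 i * m 0 i + m 1 i * m 1 i + m 2 i * m 2 i = 1 := by
    intro i
    have h1 := congrFun (congrFun hmm i) i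
    rw [Matrix.mul_apply, Fin.sum_univ_three, hlam1] at h1
    simpa using h1
  have hex : ∀ i, ∃ k : Fin 3, ∃ c : F, c ≠ 0 ∧ a (v i) = c • v k := by
    intro i
    have h1 := hexp i
    rw [Fin.sum_univ_three] at h1
    rcases three_sq hq (hcol i) with ⟨h, h', h''⟩ | ⟨h, h', h''⟩ | ⟨h, h', h''⟩
    · exact ⟨0, m 0 i, h, by rw [h1, h', h'']; simp⟩
    · exact ⟨1, m 1 i, h', by rw [h1, h, h'']; simp⟩
    · exact ⟨2, m 2 i, h'', by rw [h1, h, h']; simp⟩
  choose s c hc hs using hex
  have hinj : Function.Injective s := by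
    intro i j hij
    by_contra hne
    have h1 := ha i j
    rw [hv' i j hne, mul_zero, hs i, hs j, hij, hf.bilinear.smul_left, hf.bilinear.smul_right,
      hv] at h1
    exact (mul_ne_zero (hc i) (mul_ne_zero (hc j) hε)) h1
  refine ⟨Equiv.ofBijective s (Finite.injective_iff_bijective.1 hinj), fun i => ⟨c i, hc i, ?_⟩⟩
  exact hs i

end Cfsg.Agent.H883.Frame3
end

-- part: H883/TensorThree
section
/-!
`O_3(3) ⊗ O_n(3)` is not maximal in `Ω_{3n}(3)`: it permutes the three subspaces `v_i ⊗ F^n` for the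
orthogonal frame `v_i` of `F^3`.
-/

set_option autoImplicit false

namespace Cfsg.Agent.H883.TensorThree

open QuadraticMap Matrix Cfsg.Agent.H883.Tensor Cfsg.Agent.H883.Frame3
open Cfsg.Agent.LieClassical.OrthCore Cfsg.Agent.LieClassical.OrthTrans
  Cfsg.Agent.LieClassical.OrthFinite

variable {ι : Type} [Fintype ι] [DecidableEq ι] {F : Type*} [Field F]

/-- the subspace `x ⊗ F^(n₂)` -/
noncomputable def lineTensor {n₁ n₂ : ℕ} (e : ι ≃ Fin n₁ × Fin n₂) (P : GL ι F) (x : Fin n₁ → F) :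
    Submodule F (ι → F) := LinearMap.range (pureBilin e P x)

theorem mem_lineTensor {n₁ n₂ : ℕ} {e : ι ≃ Fin n₁ × Fin n₂} {P : GL ι F} {x : Fin n₁ → F}
    {v : ι → F} : v ∈ lineTensor e P x ↔ ∃ y, pure e P x y = v := Iff.rfl

theorem tensor_three_not_maximal [Fintype F] (hq : Fintype.card F = 3) {Q : (ι → F) → F}
    (hQ : Cfsg.Geo.IsNondegenerateQuadraticForm Q) {n₂ : ℕ} (h2 : 5 ≤ n₂)
    (e : ι ≃ Fin 3 × Fin n₂) (P : GL ι F)
    (f₁ : (Fin 3 → F) → (Fin 3 → F) → F) (f₂ : (Fin n₂ → F) → (Fin n₂ → F) → F)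
    (hf₁ : Cfsg.Geo.IsSymmetricForm f₁) (hf₂ : Cfsg.Geo.IsSymmetricForm f₂)
    (hT : Cfsg.Geo.IsTensorFormStructure id (QuadraticMap.polar Q) f₁ f₂ e P) :
    ∃ K : Subgroup (GL ι F),
      Cfsg.Geo.tensorProductSubgroup 3 n₂ e P ⊓ Cfsg.Geo.omegaGL Q < K ∧ K < Cfsg.Geo.omegaGL Q := by
  have hcard : Fintype.card ι = 3 * n₂ := by
    rw [Fintype.card_congr e, Fintype.card_prod, Fintype.card_fin, Fintype.card_fin]
  have hn5 : 5 ≤ Fintype.card ι := by omega
  obtain ⟨v, ε, hε, hv, hv'⟩ := exists_frame hq hf₁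
  obtain ⟨c, hc, hform⟩ := form_pure hf₁.bilinear hf₂.bilinear hT
  obtain ⟨Q', hQQ, hnd⟩ := Cfsg.Agent.H883.Bridge.exists_quadraticForm hQ
  have hsym2 : ∀ y, y ≠ 0 → ∃ z, f₂ y z ≠ 0 := fun y hy => (hf₂.nondegenerate y hy).2
  let D : Fin 3 → Submodule F (ι → F) := fun i => lineTensor e P (v i)
  -- the form between the members
  have hDform : ∀ i j y y', polar Q (pure e P (v i) y) (pure e P (v j) y') =
      if i = j then c * (ε * f₂ y y') else 0 := by
    intro i j y y'
    rw [hform]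
    by_cases hij : i = j
    · subst hij
      rw [hv, if_pos rfl]
    · rw [hv' i j hij, if_neg hij, zero_mul, mul_zero]
  have hinj : ∀ i y, pure e P (v i) y = 0 → y = 0 := by
    intro i y hy
    by_contra h0
    obtain ⟨z, hz⟩ := hsym2 y h0
    have h1 := hDform i i y z
    rw [hy, if_pos rfl] at h1
    have h3 : polar Q 0 (pure e P (v i) z) = 0 := by
      rw [← hQQ]
      exact polar_zero_left Q' _
    rw [h3] at h1
    exact (mul_ne_zero hc (mul_ne_zero hε hz)) h1.symm
  have hinj2 : ∀ i y y', pure e P (v i) y = pure e P (v i) y' → y = y' := by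
    intro i y y' h
    rw [← sub_eq_zero]
    apply hinj i
    rw [← pureBilin_apply, map_sub, pureBilin_apply, pureBilin_apply, h, sub_self]
  have hDne : ∀ i, D i ≠ ⊥ := by
    intro i h
    have h0 : (Pi.single (⟨0, by omega⟩ : Fin n₂) (1 : F) : Fin n₂ → F) ≠ 0 := by
      intro h1
      have := congrFun h1 ⟨0, by omega⟩
      simp at this
    apply h0
    apply hinj i
    have : pure e P (v i) (Pi.single (⟨0, by omega⟩ : Fin n₂) (1 : F)) ∈ D i := ⟨_, rfl⟩
    rw [h] at this
    simpa using this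
  have hDnd : ∀ i, Cfsg.Agent.H883.Sub.NondegOn Q' (D i) := by
    rintro i _ ⟨y, rfl⟩ hy
    by_contra h0
    have hy0 : y ≠ 0 := by
      rintro rfl
      exact h0 (map_zero _)
    obtain ⟨z, hz⟩ := hsym2 y hy0
    have h1 := hy (pure e P (v i) z) ⟨z, rfl⟩
    rw [pureBilin_apply, hQQ, hDform, if_pos rfl] at h1
    exact (mul_ne_zero hc (mul_ne_zero hε hz)) h1
  have hDind : iSupIndep D := by
    rw [iSupIndep_def]
    intro i
    rw [Submodule.disjoint_def]
    intro x hx hx'
    have hle : (⨆ (j : Fin 3) (_ : j ≠ i), D j) ≤ Cfsg.Agent.H883.Sub.perp Q' (D i) := by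
      refine iSup_le fun j => iSup_le fun hj => ?_
      rintro _ ⟨y, rfl⟩
      rw [Cfsg.Agent.H883.Sub.mem_perp]
      rintro _ ⟨y', rfl⟩
      rw [pureBilin_apply, pureBilin_apply, hQQ, hDform, if_neg (Ne.symm hj)]
    have hx2 := hle hx'
    exact hDnd i x hx fun z hz => Cfsg.Agent.H883.Sub.mem_perp'.1 hx2 z hz
  have hDfin : ∀ i, Module.finrank F (D i) = n₂ := by
    intro i
    have h1 : LinearMap.ker (pureBilin e P (v i)) = ⊥ := by
      rw [LinearMap.ker_eq_bot']
      exact fun y hy => hinj i y hy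
    have h3 := LinearMap.finrank_range_of_inj (LinearMap.ker_eq_bot.1 h1)
    rw [Module.finrank_fin_fun] at h3
    exact h3
  -- elements of the tensor product group permute the members
  have hkey : ∀ g ∈ Cfsg.Geo.tensorProductSubgroup 3 n₂ e P ⊓ Cfsg.Geo.omegaGL Q,
      ∃ (b : GL (Fin n₂) F) (σ : Equiv.Perm (Fin 3)), ∀ i, ∃ d : F, d ≠ 0 ∧ ∀ y,
        (g : Matrix ι ι F) *ᵥ pure e P (v i) y = d • pure e P (v (σ i)) ((b : Matrix _ _ F) *ᵥ y) := by
    rintro g ⟨hg1, hg2⟩
    obtain ⟨a, b, hab⟩ := (mem_tensorProductSubgroup_iff e P g).1 hg1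
    have hiso : ∀ x y, polar Q ((g : Matrix ι ι F) *ᵥ x) ((g : Matrix ι ι F) *ᵥ y) = polar Q x y := by
      intro x y
      have hgQ : ∀ z, Q ((g : Matrix ι ι F) *ᵥ z) = Q z := by
        have := Cfsg.Agent.H925.omegaGL_le_iso Q hg2
        exact Cfsg.Agent.H925.mem_iso_iff.1 this
      simp only [polar, ← Matrix.mulVec_add, hgQ]
    -- `a` is a similarity
    obtain ⟨y0, y1, hy01⟩ : ∃ y0 y1, f₂ y0 y1 ≠ 0 := by
      have h0 : (Pi.single (⟨0, by omega⟩ : Fin n₂) (1 : F) : Fin n₂ → F) ≠ 0 := by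
        intro h1
        have := congrFun h1 ⟨0, by omega⟩
        simp at this
      obtain ⟨z, hz⟩ := hsym2 _ h0
      exact ⟨_, z, hz⟩
    have hsim : ∀ i j, f₁ ((a : Matrix _ _ F) *ᵥ v i) ((a : Matrix _ _ F) *ᵥ v j) *
        f₂ ((b : Matrix _ _ F) *ᵥ y0) ((b : Matrix _ _ F) *ᵥ y1) = f₁ (v i) (v j) * f₂ y0 y1 := by
      intro i j
      have h1 := hiso (pure e P (v i) y0) (pure e P (v j) y1)
      rw [hab, hab, hform, hform] at h1
      exact mul_left_cancel₀ hc h1
    set β := f₂ ((b : Matrix _ _ F) *ᵥ y0) ((b : Matrix _ _ F) *ᵥ y1) with hβ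
    have hβ0 : β ≠ 0 := by
      intro h0
      have h1 := hsim 0 0
      rw [h0, mul_zero, hv] at h1
      exact (mul_ne_zero hε hy01) h1.symm
    obtain ⟨σ, hσ⟩ := similarity_frame hq hf₁ hε hv hv' (a := fun x => (a : Matrix _ _ F) *ᵥ x)
      (lam := f₂ y0 y1 * β⁻¹) (mul_ne_zero hy01 (inv_ne_zero hβ0)) (by
        intro i j
        have h1 := hsim i j
        show f₁ ((a : Matrix _ _ F) *ᵥ v i) ((a : Matrix _ _ F) *ᵥ v j) = _
        rw [eq_comm, mul_comm, ← mul_assoc, ← h1, mul_assoc, mul_inv_cancel₀ hβ0, mul_one])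
    refine ⟨b, σ, fun i => ?_⟩
    obtain ⟨d, hd, h⟩ := hσ i
    refine ⟨d, hd, fun y => ?_⟩
    have h' : (a : Matrix _ _ F) *ᵥ v i = d • v (σ i) := h
    rw [hab, h', pure_smul_left]
  refine ⟨Cfsg.Geo.decompositionStabilizer D ⊓ Cfsg.Geo.omegaGL Q, ?_, ?_⟩
  · rw [lt_iff_le_and_ne]
    refine ⟨fun g hg => ⟨?_, hg.2⟩, ?_⟩
    · obtain ⟨b, σ, hσ⟩ := hkey g hg
      refine ⟨σ, fun i => ?_⟩
      obtain ⟨d, hd, h⟩ := hσ i
      ext x
      rw [Submodule.mem_map]
      constructor
      · rintro ⟨_, ⟨y, rfl⟩, rfl⟩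
        rw [Matrix.toLin'_apply, pureBilin_apply, h]
        exact (D (σ i)).smul_mem _ ⟨_, rfl⟩
      · rintro ⟨y, rfl⟩
        refine ⟨pure e P (v i) (((b⁻¹ : GL (Fin n₂) F) : Matrix _ _ F) *ᵥ (d⁻¹ • y)), ⟨_, rfl⟩, ?_⟩
        rw [Matrix.toLin'_apply, h, Matrix.mulVec_mulVec, ← Units.val_mul, mul_inv_cancel,
          Units.val_one, Matrix.one_mulVec, pure_smul_right, smul_smul, mul_inv_cancel₀ hd,
          one_smul, pureBilin_apply]
    · -- a Siegel transformation of the first member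
      intro heq
      have hQ'5 : 3 ≤ Module.finrank F (D 0) := by rw [hDfin]; omega
      obtain ⟨u, huD, hu0, hu⟩ := exists_sing_mem (Q := Q') (D 0) hQ'5
      -- `w` in `D 0`, orthogonal to `u` and not a multiple of `u`
      obtain ⟨z, hzD, huz⟩ := (hDnd 0).exists_polar_eq huD hu0 1
      obtain ⟨w, hwD, hw0, huw, hzw⟩ : ∃ w ∈ D 0, w ≠ 0 ∧ polar Q' u w = 0 ∧ polar Q' z w = 0 := by
        have hfin := hDfin 0
        have hrk : 2 < Module.finrank F (D 0) := by omega
        obtain ⟨w, hw0, hw⟩ := exists_perp_ne (Q := Cfsg.Agent.H883.Sub.res Q' (D 0))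
          ![⟨u, huD⟩, ⟨z, hzD⟩] hrk
        exact ⟨w, w.2, fun h => hw0 (Subtype.ext h), hw 0, hw 1⟩
      have huQ : Q u = 0 := by rw [← hQQ]; exact hu
      have huwQ : polar Q u w = 0 := by rw [← hQQ]; exact huw
      obtain ⟨g, hg, hgact⟩ := Cfsg.Agent.H925.exists_siegel hQ hn5 huQ huwQ
      have hgfix : ∀ x ∈ D 1, (g : Matrix ι ι F) *ᵥ x = x := by
        rintro _ ⟨y, rfl⟩
        obtain ⟨y1, rfl⟩ := huD
        obtain ⟨y2, rfl⟩ := hwD
        rw [hgact, pureBilin_apply, pureBilin_apply, pureBilin_apply, hDform, hDform,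
          if_neg (by decide)]
        simp
      have hgfix2 : ∀ x ∈ D 2, (g : Matrix ι ι F) *ᵥ x = x := by
        rintro _ ⟨y, rfl⟩
        obtain ⟨y1, rfl⟩ := huD
        obtain ⟨y2, rfl⟩ := hwD
        rw [hgact, pureBilin_apply, pureBilin_apply, pureBilin_apply, hDform, hDform,
          if_neg (by decide)]
        simp
      have hgst : ∀ x ∈ D 0, (g : Matrix ι ι F) *ᵥ x ∈ D 0 := by
        intro x hx
        rw [hgact]
        exact (D 0).sub_mem ((D 0).sub_mem ((D 0).add_mem hx ((D 0).smul_mem _ hwD))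
          ((D 0).smul_mem _ huD)) ((D 0).smul_mem _ huD)
      have hgK : g ∈ Cfsg.Geo.decompositionStabilizer D ⊓ Cfsg.Geo.omegaGL Q := by
        refine ⟨⟨1, fun i => ?_⟩, hg⟩
        rw [Equiv.Perm.one_apply]
        have hle : (D i).map (Matrix.toLin' (g : Matrix ι ι F)) ≤ D i := by
          rintro _ ⟨x, hx, rfl⟩
          rw [Matrix.toLin'_apply]
          fin_cases i
          · exact hgst x hx
          · have := hgfix x hx
            rw [this]; exact hx
          · have := hgfix2 x hx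
            rw [this]; exact hx
        refine Submodule.eq_of_le_of_finrank_eq hle ?_
        exact LinearEquiv.finrank_map_eq (glEquiv ι F g) (D i)
      rw [← heq] at hgK
      obtain ⟨b, σ, hσ⟩ := hkey g hgK
      -- `g` is trivial on `D 1`
      have hσi : ∀ i, (∃ y, y ≠ 0 ∧ (g : Matrix ι ι F) *ᵥ pure e P (v i) y = pure e P (v i) y) →
          σ i = i := by
        rintro i ⟨y, hy, hgy⟩
        obtain ⟨d, hd, h⟩ := hσ i
        by_contra hne
        rw [h] at hgy
        have h1 : (D i) ⊓ (⨆ (j : Fin 3) (_ : j ≠ i), D j) = ⊥ :=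
          (iSupIndep_def.1 hDind i).eq_bot
        have h2 : pure e P (v i) y ∈ (D i) ⊓ (⨆ (j : Fin 3) (_ : j ≠ i), D j) := by
          refine ⟨⟨y, rfl⟩, ?_⟩
          rw [← hgy]
          have h3 : D (σ i) ≤ ⨆ (j : Fin 3) (_ : j ≠ i), D j := le_iSup₂_of_le (σ i) hne le_rfl
          exact h3 ((D (σ i)).smul_mem _ ⟨_, rfl⟩)
        rw [h1] at h2
        exact hy (hinj i y (by simpa using h2))
      have hy0 : ∃ y : Fin n₂ → F, y ≠ 0 := by
        refine ⟨Pi.single (⟨0, by omega⟩ : Fin n₂) (1 : F), ?_⟩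
        intro h1
        have := congrFun h1 ⟨0, by omega⟩
        simp at this
      obtain ⟨ye, hye⟩ := hy0
      have hσ1 : σ 1 = 1 := hσi 1 ⟨ye, hye, hgfix _ ⟨ye, rfl⟩⟩
      obtain ⟨d1, hd1, h1⟩ := hσ 1
      have hb : ∀ y : Fin n₂ → F, (b : Matrix (Fin n₂) (Fin n₂) F) *ᵥ y = d1⁻¹ • y := by
        intro y
        have h3 := h1 y
        have h4 : (g : Matrix ι ι F) *ᵥ pure e P (v 1) y = pure e P (v 1) y := hgfix _ ⟨y, rfl⟩
        rw [h4, hσ1, ← pure_smul_right] at h3
        have h5 := hinj2 1 _ _ h3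
        rw [eq_inv_smul_iff₀ hd1]
        exact h5.symm
      -- on `D 0`
      obtain ⟨y1, hy1⟩ := huD
      rw [pureBilin_apply] at hy1
      have hgu : (g : Matrix ι ι F) *ᵥ u = u := by
        have h6 : polar Q u u = 0 := by
          rw [← hQQ]; exact polar_self_of_sing hu
        have h7 : polar Q w u = 0 := by rw [polar_comm]; exact huwQ
        rw [hgact, h6, h7]
        simp
      have hy1n : y1 ≠ 0 := by
        rintro rfl
        apply hu0
        rw [← hy1, ← pureBilin_apply, map_zero]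
      have hσ0 : σ 0 = 0 := hσi 0 ⟨y1, hy1n, by rw [hy1]; exact hgu⟩
      obtain ⟨d0, hd0, h0⟩ := hσ 0
      have hsc : ∀ x ∈ D 0, (g : Matrix ι ι F) *ᵥ x = (d0 * d1⁻¹) • x := by
        rintro _ ⟨y, rfl⟩
        rw [pureBilin_apply, h0, hσ0, hb, pure_smul_right, smul_smul]
      have hsc1 : d0 * d1⁻¹ = 1 := by
        have h8 := hsc u ⟨y1, by rw [pureBilin_apply]; exact hy1⟩
        rw [hgu] at h8
        have h9 : (d0 * d1⁻¹ - 1) • u = 0 := by rw [sub_smul, one_smul, ← h8, sub_self]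
        rcases smul_eq_zero.1 h9 with h | h
        · exact sub_eq_zero.1 h
        · exact absurd h hu0
      have hgz := hsc z hzD
      rw [hsc1, one_smul, hgact] at hgz
      have huzQ : polar Q u z = 1 := by rw [← hQQ]; exact huz
      have hwzQ : polar Q w z = 0 := by rw [polar_comm, ← hQQ]; exact hzw
      rw [huzQ, hwzQ, one_smul, zero_smul, sub_zero, mul_one] at hgz
      -- `w = Q w • u`
      have hw1 : w = Q w • u := by
        have h10 : w - Q w • u = 0 := by
          have : z + w - Q w • u - z = 0 := by rw [hgz, sub_self]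
          rw [← this]; abel
        exact sub_eq_zero.1 h10
      have h11 : polar Q z w = 0 := by rw [← hQQ]; exact hzw
      rw [hw1] at h11
      have h12 : polar Q z (Q w • u) = Q w * polar Q z u := by
        rw [← hQQ, polar_smul_right, smul_eq_mul]
      rw [h12, polar_comm, huzQ, mul_one] at h11
      rw [h11, zero_smul] at hw1
      exact hw0 hw1
  · rw [lt_iff_le_and_ne]
    refine ⟨inf_le_right, fun h => ?_⟩
    exact Cfsg.Agent.H925.omegaGL_not_le_decompositionStabilizer hQ (by omega) (by norm_num) hDne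
      hDind (inf_eq_right.1 h)

end Cfsg.Agent.H883.TensorThree
end
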